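import Cfsg.Agent.H371.CoverTwo
import Cfsg.Agent.H799.L37.Spec

/-!
# Covers of `PSL₃(7)` have larger spectrum (helper799)
-/

set_option autoImplicit false

namespace Cfsg.Agent.H799.L37

open Cfsg.Agent.H371

/-- the element of order 16 -/
def c16 : SL := ⟨!![0, 1, 0; 1, 1, 0; 0, 0, -1], by decide +kernel⟩

/-- the group of order 49 -/
def up (v : ZMod 7 × ZMod 7) : SL := ⟨!![1, 0, v.1; 0, 1, v.2; 0, 0, 1], by
  rw [Matrix.det_fin_three]
  simp⟩

theorem up_add (v w : ZMod 7 × ZMod 7) : up (v + w) = up v * up w := by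
  apply Subtype.ext
  rw [Matrix.SpecialLinearGroup.coe_mul]
  ext i j
  fin_cases i <;> fin_cases j <;> simp [up, Matrix.mul_apply, Fin.sum_univ_three, add_comm]

theorem up_zero : up 0 = 1 := by
  apply Subtype.ext
  decide +kernel

/-- the group of order 49 in the projective group -/
def upHom : Multiplicative (ZMod 7 × ZMod 7) →* P where
  toFun v := mk (up v.toAdd)
  map_one' := by rw [toAdd_one, up_zero, map_one]
  map_mul' a b := by rw [toAdd_mul, up_add, map_mul]

theorem mk_up_eq_one {v : ZMod 7 × ZMod 7} (h : mk (up v) = 1) : v = 0 := by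
  obtain ⟨c, -, hc⟩ := mk_eq_one_iff.1 h
  have h1 := congrFun (congrFun hc 0) 2
  have h2 := congrFun (congrFun hc 1) 2
  simp [up, Matrix.smul_apply] at h1 h2
  exact Prod.ext h1.symm h2.symm

theorem c16_pow : c16 ^ 16 = 1 := Subtype.ext (by decide +kernel)

theorem orderOf_c16 : orderOf (mk c16) = 16 := by
  have h1 : mk c16 ^ 2 ^ (3 + 1) = 1 := by
    rw [← map_pow]
    exact (congrArg mk c16_pow).trans (map_one mk)
  have h2 : ¬ mk c16 ^ 2 ^ 3 = 1 := by
    rw [← map_pow]
    intro h
    obtain ⟨c, -, hc⟩ := mk_eq_one_iff.1 h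
    have h3 := congrFun (congrFun hc 0) 0
    have h4 := congrFun (congrFun hc 2) 2
    have h5 : (c16 ^ 2 ^ 3).1 0 0 = -1 := by decide +kernel
    have h6 : (c16 ^ 2 ^ 3).1 2 2 = 1 := by decide +kernel
    rw [h5] at h3
    rw [h6] at h4
    simp [Matrix.smul_apply] at h3 h4
    rw [h4] at h3
    revert h3
    decide
  exact orderOf_eq_prime_pow h2 h1

theorem c16_conj : ∀ v : ZMod 7 × ZMod 7, c16 * up v = up (-v.2, -(v.1 + v.2)) * c16 := by
  intro v
  apply Subtype.ext
  revert v
  decide +kernel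

theorem c16_conj8 : ∀ v : ZMod 7 × ZMod 7, c16 ^ 8 * up v = up (-v) * c16 ^ 8 := by
  intro v
  apply Subtype.ext
  revert v
  decide +kernel

theorem comm8 {X : Type*} [Group X] {c a : X} (h16 : c ^ 16 = 1) {i : ℕ} (h0 : 0 < i) (hi : i < 16)
    (h : Commute (c ^ i) a) : Commute (c ^ 8) a := by
  have h' : ∀ k m, i * k = 8 + 16 * m → Commute (c ^ 8) a := by
    intro k m hk
    have h1 : c ^ 8 = (c ^ i) ^ k := by
      rw [← pow_mul, hk, pow_add, pow_mul, h16, one_pow, mul_one]
    rw [h1]
    exact h.pow_left k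
  interval_cases i
  · exact h' 8 0 rfl
  · exact h' 4 0 rfl
  · exact h' 8 1 rfl
  · exact h' 2 0 rfl
  · exact h' 8 2 rfl
  · exact h' 4 1 rfl
  · exact h' 8 3 rfl
  · exact h' 1 0 rfl
  · exact h' 8 4 rfl
  · exact h' 4 2 rfl
  · exact h' 8 5 rfl
  · exact h' 2 1 rfl
  · exact h' 8 6 rfl
  · exact h' 4 3 rfl
  · exact h' 8 7 rfl

/-- **No covers.** -/
theorem ker_eq_bot {G : Type*} [Group G] [Finite G] [IsSimpleGroup P] (hS : Sp G) (K : Subgroup G) [K.Normal]
    (hK : Group.IsSolvable K) (f : P ≃* G ⧸ K) : K = ⊥ := by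
  classical
  by_contra hne
  obtain ⟨L, hLn, hLK, hV0, hab, e, he, -, hexp⟩ := CoverTwo.exists_chief K hK hne
  set π := QuotientGroup.mk' L with hπ
  set V := K.map π with hV
  have hπs : Function.Surjective π := QuotientGroup.mk'_surjective L
  have hVn : V.Normal := Subgroup.Normal.map inferInstance π hπs
  let ψ : (G ⧸ L) ⧸ V ≃* G ⧸ K := QuotientGroup.quotientQuotientEquivQuotient L K hLK
  let φ : P ≃* (G ⧸ L) ⧸ V := f.trans ψ.symm
  have hSL : Sp (G ⧸ L) := hS.of_surjective π hπs
  obtain ⟨v, hv1⟩ := (Subgroup.ne_bot_iff_exists_ne_one).1 hV0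
  have hvo : orderOf (v : G ⧸ L) = e := by
    have := Fact.mk he
    exact orderOf_eq_prime (hexp v v.2) (fun h => hv1 (Subtype.ext h))
  have he4 : e = 2 ∨ e = 3 ∨ e = 7 ∨ e = 19 := by
    have h1 := dvd_cases (hSL (v : G ⧸ L))
    rw [hvo] at h1
    rcases h1 with rfl | rfl | rfl | rfl | rfl | rfl | rfl | rfl | rfl | rfl <;> revert he <;> norm_num
  have hord : ∀ n, (∃ g : G ⧸ L, orderOf g = n) → n ∣ 6 ∨ n ∣ 14 ∨ n ∣ 16 ∨ n ∣ 19 := by
    rintro n ⟨g, rfl⟩
    exact hSL g
  have hfaith : ∀ a : P, a ≠ 1 → ∀ x : G ⧸ L, (x : (G ⧸ L) ⧸ V) = φ a → ∃ w ∈ V, x * w ≠ w * x := by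
    intro a ha x hx
    by_contra hcon
    push Not at hcon
    have hCn : (Subgroup.centralizer (V : Set (G ⧸ L))).Normal := inferInstance
    have hN : ((Subgroup.centralizer (V : Set (G ⧸ L))).map (QuotientGroup.mk' V)).Normal :=
      hCn.map _ (QuotientGroup.mk'_surjective V)
    have hnt : Nontrivial ((G ⧸ L) ⧸ V) := φ.symm.toEquiv.nontrivial
    have hsimp : IsSimpleGroup ((G ⧸ L) ⧸ V) := IsSimpleGroup.isSimpleGroup_of_surjective φ.toMonoidHom φ.surjective
    have hxC : x ∈ Subgroup.centralizer (V : Set (G ⧸ L)) := by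
      rw [Subgroup.mem_centralizer_iff]
      intro w hw
      exact (hcon w hw).symm
    have hNtop : (Subgroup.centralizer (V : Set (G ⧸ L))).map (QuotientGroup.mk' V) = ⊤ := by
      rcases hsimp.eq_bot_or_eq_top_of_normal _ hN with h | h
      · exfalso
        apply ha
        have h1 : φ a ∈ (Subgroup.centralizer (V : Set (G ⧸ L))).map (QuotientGroup.mk' V) := ⟨x, hxC, hx⟩
        rw [h, Subgroup.mem_bot] at h1
        exact (MulEquiv.map_eq_one_iff φ).1 h1
      · exact h
    -- an element of order `r` commuting with `v`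
    have key : ∀ (r : ℕ) (s : P), r.Prime → orderOf s = r → r ≠ e → ∃ g : G ⧸ L, orderOf g = r * e := by
      intro r s hr hs hre
      have h1 : φ s ∈ (Subgroup.centralizer (V : Set (G ⧸ L))).map (QuotientGroup.mk' V) := by
        rw [hNtop]
        exact Subgroup.mem_top _
      obtain ⟨y, hy, hys⟩ := h1
      have h5 : r ∣ orderOf y := by
        rw [← hs, ← orderOf_injective φ.toMonoidHom φ.injective]
        change orderOf (φ s) ∣ _
        rw [← hys]
        exact orderOf_map_dvd (QuotientGroup.mk' V) y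
      obtain ⟨k, hk⟩ := h5
      have hpos : 0 < orderOf y := orderOf_pos y
      have hk0 : k ≠ 0 := by rintro rfl; omega
      have hxo : orderOf (y ^ k) = r := by
        rw [orderOf_pow_of_dvd hk0 (by rw [hk]; exact Dvd.intro_left _ rfl), hk,
          Nat.mul_div_cancel _ (Nat.pos_of_ne_zero hk0)]
      have hc : Commute (y ^ k) (v : G ⧸ L) :=
        Commute.pow_left ((Subgroup.mem_centralizer_iff.1 hy v v.2).symm) k
      refine ⟨y ^ k * v, ?_⟩
      rw [hc.orderOf_mul_eq_mul_orderOf_of_coprime, hxo, hvo]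
      rw [hxo, hvo]
      exact (Nat.coprime_primes hr he).2 hre
    rcases he4 with rfl | rfl | rfl | rfl
    · have := hord _ (key 19 _ (by norm_num) orderOf_m19 (by norm_num))
      omega
    · have := hord _ (key 19 _ (by norm_num) orderOf_m19 (by norm_num))
      omega
    · have := hord _ (key 19 _ (by norm_num) orderOf_m19 (by norm_num))
      omega
    · have := hord _ (key 7 _ (by norm_num) orderOf_m7 (by norm_num))
      omega
  by_cases he7 : e = 7
  · -- the Frobenius group `19 : 3`
    subst he7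
    have h19 : ∀ i : ℕ, 0 < i → i < 3 → ∀ k : ℤ, mk fr ^ i * mk m19 ^ k = mk m19 ^ k * mk fr ^ i → (19 : ℤ) ∣ k := by
      intro i hi hi3 k hk
      have h1 : ∀ k : ℤ, mk fr * mk m19 ^ k = mk m19 ^ (7 * k) * mk fr := by
        intro k
        have h2 : SemiconjBy (mk fr) (mk m19) (mk m19 ^ 7) := by
          have := congrArg mk fr_conj
          rwa [map_mul, map_mul, map_pow] at this
        have h3 := h2.zpow_right k
        rw [← zpow_natCast, ← zpow_mul] at h3
        exact h3
      have h2 : mk m19 ^ ((7 : ℤ) ^ i * k) * mk fr ^ i = mk m19 ^ k * mk fr ^ i := by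
        rw [← hk]
        clear hk
        have hi12 : i = 1 ∨ i = 2 := by omega
        rcases hi12 with rfl | rfl
        · rw [pow_one, pow_one, h1]
        · rw [pow_two (mk fr), mul_assoc (mk fr), h1, ← mul_assoc (mk fr), h1, mul_assoc, ← mul_assoc 7 7 k]
          norm_num
      rw [mul_left_inj] at h2
      have h3 : mk m19 ^ (((7 : ℤ) ^ i - 1) * k) = 1 := by
        rw [sub_mul, one_mul, zpow_sub, h2, mul_inv_cancel]
      rw [← orderOf_dvd_iff_zpow_eq_one, orderOf_m19] at h3
      have hi12 : i = 1 ∨ i = 2 := by omega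
      rcases hi12 with rfl | rfl
      · norm_num at h3
        omega
      · norm_num at h3
        omega
    have hconj : ∀ k : ℤ, φ (mk fr) * φ (mk m19) ^ k = φ (mk m19) ^ (7 * k) * φ (mk fr) := by
      intro k
      have h2 : SemiconjBy (φ (mk fr)) (φ (mk m19)) (φ (mk m19) ^ 7) := by
        have := congrArg φ (congrArg mk fr_conj)
        rwa [map_mul mk, map_mul mk, map_mul φ, map_mul φ, map_pow mk, map_pow φ] at this
      have h3 := h2.zpow_right k
      rw [← zpow_natCast, ← zpow_mul] at h3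
      exact h3
    obtain ⟨y, hy⟩ := Frob.exists_orderOf (G := G ⧸ L) V ⟨⟨fun a b => Subtype.ext (hab a a.2 b b.2)⟩⟩ he
      hexp (Subgroup.zpowers (φ (mk m19))) (c := φ (mk fr)) (by
        rintro _ ⟨k, rfl⟩
        refine ⟨7 * k, ?_⟩
        change φ (mk m19) ^ (7 * k) = φ (mk fr) * φ (mk m19) ^ k * (φ (mk fr))⁻¹
        rw [eq_mul_inv_iff_mul_eq, hconj]) (by
        rintro i hi0 hi _ ⟨k, rfl⟩ hcomm
        have h1 : orderOf (φ (mk fr)) = 3 := by rw [MulEquiv.orderOf_eq, orderOf_fr]
        rw [h1] at hi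
        change φ (mk fr) ^ i * φ (mk m19) ^ k = φ (mk m19) ^ k * φ (mk fr) ^ i at hcomm
        rw [← map_pow, ← map_zpow, ← map_mul, ← map_mul] at hcomm
        obtain ⟨j, rfl⟩ := h19 i hi0 hi k (φ.injective hcomm)
        change φ (mk m19) ^ (19 * j) = 1
        rw [← map_zpow, zpow_mul]
        have h2 : mk m19 ^ (19 : ℤ) = 1 := by
          have := pow_orderOf_eq_one (mk m19)
          rw [orderOf_m19] at this
          exact_mod_cast this
        rw [h2, one_zpow, map_one]) (by
        rw [Nat.card_zpowers, MulEquiv.orderOf_eq, orderOf_m19]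
        norm_num) (by
        obtain ⟨x, hx⟩ := QuotientGroup.mk_surjective (φ (mk m19))
        refine ⟨x, ?_, hfaith (mk m19) ?_ x hx⟩
        · rw [hx]
          exact Subgroup.mem_zpowers _
        · intro h
          have := orderOf_m19
          rw [h, orderOf_one] at this
          omega)
    rw [MulEquiv.orderOf_eq, orderOf_fr] at hy
    have := hord _ ⟨y, hy⟩
    omega
  · have hconj : ∀ v : ZMod 7 × ZMod 7, φ (mk c16) * φ (mk (up v)) =
        φ (mk (up (-v.2, -(v.1 + v.2)))) * φ (mk c16) := by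
      intro v
      have := congrArg φ (congrArg mk (c16_conj v))
      rwa [map_mul mk, map_mul mk, map_mul φ, map_mul φ] at this
    have hcard : Nat.card ((φ.toMonoidHom.comp upHom).range) ∣ 49 := by
      have h2 := Subgroup.card_range_dvd (φ.toMonoidHom.comp upHom)
      have h3 : Nat.card (Multiplicative (ZMod 7 × ZMod 7)) = 49 := by
        rw [Nat.card_congr (Multiplicative.toAdd (α := ZMod 7 × ZMod 7)), Nat.card_prod, Nat.card_zmod]
      rwa [h3] at h2
    obtain ⟨y, hy⟩ := Frob.exists_orderOf (G := G ⧸ L) V ⟨⟨fun a b => Subtype.ext (hab a a.2 b b.2)⟩⟩ he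
      hexp ((φ.toMonoidHom.comp upHom).range) (c := φ (mk c16)) (by
        rintro _ ⟨v, rfl⟩
        refine ⟨Multiplicative.ofAdd (-v.toAdd.2, -(v.toAdd.1 + v.toAdd.2)), ?_⟩
        rw [eq_mul_inv_iff_mul_eq]
        exact (hconj v.toAdd).symm) (by
        rintro i hi0 hi _ ⟨v, rfl⟩ hcomm
        have h1 : orderOf (φ (mk c16)) = 16 := by rw [MulEquiv.orderOf_eq, orderOf_c16]
        have h16 : φ (mk c16) ^ 16 = 1 := by rw [← h1, pow_orderOf_eq_one]
        rw [h1] at hi
        have h2 := comm8 h16 hi0 hi hcomm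
        have h3 : φ (mk (c16 ^ 8 * up v.toAdd)) = φ (mk (up v.toAdd * c16 ^ 8)) := by
          rw [map_mul mk, map_mul mk, map_mul φ, map_mul φ, map_pow mk, map_pow φ]
          exact h2
        have h4 := φ.injective h3
        rw [c16_conj8, map_mul, map_mul, mul_left_inj] at h4
        have h5 : mk (up (v.toAdd + v.toAdd)) = 1 := by
          rw [up_add, map_mul]
          nth_rewrite 1 [← h4]
          rw [← map_mul, ← up_add, neg_add_cancel, up_zero, map_one]
        have h6 := mk_up_eq_one h5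
        have h7 : v.toAdd = 0 := by
          have : ∀ w : ZMod 7 × ZMod 7, w + w = 0 → w = 0 := by decide +kernel
          exact this _ h6
        have h8 : v = 1 := h7
        rw [h8, map_one]) (by
        refine Nat.Coprime.coprime_dvd_left hcard ?_
        rcases he4 with rfl | rfl | rfl | rfl
        · norm_num
        · norm_num
        · exact (he7 rfl).elim
        · norm_num) (by
        obtain ⟨x, hx⟩ := QuotientGroup.mk_surjective (φ (mk (up (1, 0))))
        refine ⟨x, ?_, hfaith (mk (up (1, 0))) ?_ x hx⟩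
        · rw [hx]
          exact ⟨Multiplicative.ofAdd (1, 0), rfl⟩
        · intro h
          have := mk_up_eq_one h
          revert this
          decide)
    rw [MulEquiv.orderOf_eq, orderOf_c16] at hy
    have := hord _ ⟨y, hy⟩
    rcases he4 with rfl | rfl | rfl | rfl
    · omega
    · omega
    · exact he7 rfl
    · omega

end Cfsg.Agent.H799.L37
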