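import Cfsg.Agent.H436.Simple
import Cfsg.Agent.H436.PslTwo
import Cfsg.Agent.H363.PSL2Spec
import Cfsg.Agent.H799.L37.Uni
import Cfsg.Agent.H799.L37.Spec

/-!
# The simple groups whose element orders divide 6, 14, 16 or 19 (helper799)
-/

set_option autoImplicit false

namespace Cfsg.Agent.H799.L37

open Cfsg Cfsg.Agent.H436 Cfsg.Agent.OrdDiv

/-- test for the prime divisors -/
def tst (n : ℕ) : Bool := [5, 11, 13, 17, 23, 29, 31, 37, 41, 43, 61, 73, 307].all fun p => n % p != 0

theorem filter_eq : (KFL.filter fun g => tst (ordN g)) = [.psl 3 2, .psl 3 7, .psu 3 3, .psu 3 8] := by decide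

theorem prime_dvd {X : Type*} [Group X] [Finite X] (h : Sp X) {p : ℕ} (hp : p.Prime) (hd : p ∣ Nat.card X) :
    p = 2 ∨ p = 3 ∨ p = 7 ∨ p = 19 := by
  have := Fact.mk hp
  obtain ⟨x, hx⟩ := exists_prime_orderOf_dvd_card' p hd
  have h1 := dvd_cases (h x)
  rw [hx] at h1
  rcases h1 with rfl | rfl | rfl | rfl | rfl | rfl | rfl | rfl | rfl | rfl <;> revert hp <;> norm_num

theorem tst_of {X : Type*} [Group X] [Finite X] (h : Sp X) : tst (Nat.card X) = true := by
  unfold tst
  rw [List.all_eq_true]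
  intro p hp
  rw [bne_iff_ne]
  intro h0
  have h1 := prime_dvd h (smallPrimes_prime p (by
    simp only [List.mem_cons, List.not_mem_nil, or_false] at hp
    rcases hp with rfl | rfl | rfl | rfl | rfl | rfl | rfl | rfl | rfl | rfl | rfl | rfl | rfl <;> decide))
    (Nat.dvd_of_mod_eq_zero h0)
  simp only [List.mem_cons, List.not_mem_nil, or_false] at hp
  omega

theorem card_primeFactors_le {X : Type*} [Group X] [Finite X] (h : Sp X) : (Nat.card X).primeFactors.card ≤ 4 := by
  have h1 : (Nat.card X).primeFactors ⊆ {2, 3, 7, 19} := by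
    intro p hp
    obtain ⟨h1, h2, -⟩ := Nat.mem_primeFactors.1 hp
    have := prime_dvd h h1 h2
    simp only [Finset.mem_insert, Finset.mem_singleton]
    exact this
  exact (Finset.card_le_card h1).trans (by decide)

theorem psl_two {F : Type*} [Field F] [Fintype F] {q : ℕ} (hF : Fintype.card F = q) (hq : 4 ≤ q)
    (h : Sp (Matrix.ProjectiveSpecialLinearGroup (Fin 2) F)) : q = 5 ∨ q = 7 ∨ q = 13 ∨ q = 15 := by
  obtain ⟨x, hx⟩ := Cfsg.Agent.H363.PSL2Spec.exists_nonsplit hF
  obtain ⟨y, hy⟩ := Cfsg.Agent.H363.PSL2Spec.exists_split hF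
  have h1 := dvd_cases (h x)
  have h2 := dvd_cases (h y)
  rw [hx] at h1
  rw [hy] at h2
  rcases Nat.mod_two_eq_zero_or_one q with h3 | h3
  · have h4 : Nat.gcd 2 (q - 1) = 1 := Nat.coprime_two_left.2 (Nat.odd_iff.2 (by omega))
    rw [h4, Nat.div_one] at h1 h2
    omega
  · have h4 : Nat.gcd 2 (q - 1) = 2 := Nat.gcd_eq_left (by omega)
    rw [h4] at h1 h2
    omega

theorem socle {S : Type*} [Group S] [Finite S] [IsSimpleGroup S] (hS : ¬ IsMulCommutative S) (h : Sp S) :
    Nat.card S = 168 ∨ Nat.card S = 6048 ∨ ∃ (F : Type) (_ : Field F) (_ : Fintype F), Fintype.card F = 7 ∧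
      Nonempty (S ≃* Matrix.ProjectiveSpecialLinearGroup (Fin 3) F) := by
  obtain ⟨g, hg, h1⟩ := k_four_simple hS (card_primeFactors_le h)
  rcases h1 with ⟨q, rfl⟩ | ⟨q, rfl⟩ | h1
  · left
    obtain ⟨-, hq4, -⟩ := hg.cond
    have hq4 := hq4 rfl
    obtain ⟨F, _, _, hF, ⟨e⟩⟩ := hg.real
    have h2 := psl_two hF hq4 (h.of_surjective e.toMonoidHom e.surjective)
    have h3 : q % 2 = 1 := by omega
    have h4 := psl_two_odd (by omega) h3 hg.eq
    rcases h2 with rfl | rfl | rfl | rfl
    · have := prime_dvd h (p := 5) (by norm_num) (by omega)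
      omega
    · omega
    · have := prime_dvd h (p := 13) (by norm_num) (by omega)
      omega
    · have := prime_dvd h (p := 5) (by norm_num) (by omega)
      omega
  · exfalso
    obtain ⟨m, hm, rfl⟩ := hg.cond
    have h2 : 1 * Nat.card S = (2 ^ (2 * m + 1)) ^ 2 * ((2 ^ (2 * m + 1) - 1) * ((2 ^ (2 * m + 1)) ^ 2 + 1)) := hg.eq
    have h3 : 5 ∣ (2 ^ (2 * m + 1)) ^ 2 + 1 := by
      have h4 : (2 ^ (2 * m + 1)) ^ 2 + 1 = 4 ^ (2 * m + 1) + 1 ^ (2 * m + 1) := by
        rw [← pow_mul, mul_comm (2 * m + 1) 2, pow_mul, one_pow]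
        norm_num
      rw [h4]
      exact (show (5 : ℕ) = 4 + 1 by norm_num) ▸ Odd.nat_add_dvd_pow_add_pow 4 1 ⟨m, rfl⟩
    have h4 : 5 ∣ Nat.card S := by
      rw [one_mul] at h2
      rw [h2]
      exact (h3.mul_left _).mul_left _
    have := prime_dvd h (p := 5) (by norm_num) h4
    omega
  · have h2 : g ∈ KFL.filter fun g => tst (ordN g) := by
      rw [List.mem_filter]
      refine ⟨h1, ?_⟩
      rw [← hg.ord]
      exact tst_of h
    rw [filter_eq] at h2
    simp only [List.mem_cons, List.not_mem_nil, or_false] at h2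
    have ho := hg.ord
    have hr := hg.real
    rcases h2 with rfl | rfl | rfl | rfl
    · left
      rw [ho]
      decide
    · right; right
      exact hr
    · right; left
      rw [ho]
      decide
    · exfalso
      obtain ⟨F, _, _, hF, ⟨e⟩⟩ := hr
      obtain ⟨x, hx⟩ := exists_nine hF
      have h3 := dvd_cases (h (e.symm x))
      rw [MulEquiv.orderOf_eq, hx] at h3
      omega

end Cfsg.Agent.H799.L37
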